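import Cfsg.Agent.H86.Wat

/-! Counting characters and Brauer characters in the union of blocks cut out by a central
idempotent. -/

set_option autoImplicit false
set_option linter.unusedSectionVars false

open MonoidAlgebra Subgroup ComplexConjugate

namespace Cfsg.Agent.H86

open Cfsg Cfsg.Agent.H87 Cfsg.Agent.H32

variable {M : Ideal AlgInt} [hMm : M.IsMaximal] {G K L : Type*} [Group G] [Group K] [Group L]
  [Finite G] {p : ℕ} {ι : K →* G} {κ : L →* G} {H : Subgroup G} {z : (Res M)[G]}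

theorem sum_ci_reg_self' [Fintype K] (hM : IsPModular p M) {A : Set (IrrCharacter K)}
    (hA : ∀ χ ∈ A, blockOf M (χ : K → ℂ) ⊆ A) :
    ∑ χ ∈ fs A, classInner (pRegularPart p (χ : K → ℂ)) χ = blockRank p A := by
  have h := trace_eq_finrank (fun χ : fs A => ((χ : IrrCharacter K) : K → ℂ))
    (H5.linearIndependent_irr.comp _ Subtype.val_injective) (regL K p) reg_reg
    (fun χ ψ => classInner (pRegularPart p ((χ : IrrCharacter K) : K → ℂ)) (ψ : IrrCharacter K))
    (fun χ => by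
      have hb := H33.isPBlock_blockOf (M := M) χ.1
      have hχ : χ.1 ∈ blockOf M (χ.1 : K → ℂ) := H33.mem_blockOf_self _
      rw [regL_apply]
      conv_lhs => rw [reg_irr_eq_sum hM hb hχ]
      rw [Finset.sum_coe_sort (fs A) fun ψ : IrrCharacter K =>
        classInner (pRegularPart p ((χ : IrrCharacter K) : K → ℂ)) ψ • (ψ : K → ℂ)]
      refine Finset.sum_subset (fun ψ hψ => mem_fs.2 (hA _ (mem_fs.1 χ.2) (mem_fs.1 hψ)))
        fun ψ _ hψ => ?_
      rw [classInner_reg_eq_zero hM hb hχ fun h => hψ (mem_fs.2 h), zero_smul])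
  have e : (Set.range fun χ : fs A => regL K p ((χ : IrrCharacter K) : K → ℂ)) =
      (fun χ : IrrCharacter K => pRegularPart p (χ : K → ℂ)) '' A := by
    ext f
    simp [mem_fs, regL_apply]
  rw [← Finset.sum_coe_sort, h, blockRank, e]

/-- The characters on which the idempotent `z` has central character `1`. -/
def As [Finite K] (ι : K →* G) (z : (Res M)[G]) : Set (IrrCharacter K) := {ξ | H87.lam ι ξ z = 1}

variable (p) in
open Classical in
/-- The sum of the ranks of the blocks under `z`. -/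
noncomputable def rkB [Fintype K] (ι : K →* G) (z : (Res M)[G]) : ℕ :=
  ∑ c ∈ blocks K M with z * idm M ι c = idm M ι c, blockRank p c

theorem Emb.rkB_eq [Fintype K] [Fintype L] (h : Emb ι H) (h' : Emb κ H) (z : (Res M)[G]) :
    rkB p ι z = rkB p κ z := by
  classical
  have key : ∀ c : Set (IrrCharacter K), ∃ d : Set (IrrCharacter L), IsPBlock M c →
      IsPBlock M d ∧ idm M κ d = idm M ι c := fun c => by
    by_cases hc : IsPBlock M c
    · obtain ⟨d, hd⟩ := h'.exists_idm_eq (h.blk_idm hc)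
      exact ⟨d, fun _ => hd⟩
    · exact ⟨∅, fun h => (hc h).elim⟩
  choose f hf using key
  refine Finset.sum_nbij f (fun c hc => ?_) (fun c hc d hd e => ?_) (fun d hd => ?_)
    fun c hc => ?_
  · obtain ⟨h1, h2⟩ := Finset.mem_filter.1 hc
    obtain ⟨h3, h4⟩ := hf c (mem_blocks.1 h1)
    exact Finset.mem_filter.2 ⟨mem_blocks.2 h3, by rwa [h4]⟩
  · have h1 := mem_blocks.1 (Finset.mem_filter.1 hc).1
    have h2 := mem_blocks.1 (Finset.mem_filter.1 hd).1
    exact idm_inj h.inj h1 h2 (by rw [← (hf c h1).2, e, (hf d h2).2])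
  · obtain ⟨h1, h2⟩ := Finset.mem_filter.1 hd
    obtain ⟨c, hc, e⟩ := h.exists_idm_eq (h'.blk_idm (mem_blocks.1 h1))
    exact ⟨c, Finset.mem_filter.2 ⟨mem_blocks.2 hc, by rwa [e]⟩,
      idm_inj h'.inj (hf c hc).1 (mem_blocks.1 h1) (by rw [(hf c hc).2, e])⟩
  · have h1 := mem_blocks.1 (Finset.mem_filter.1 hc).1
    exact Emb.rank_eq h h' h1 (hf c h1).1 (hf c h1).2.symm

theorem Emb.closed_As [Finite K] (h : Emb ι H) (hz : Inv H z) :
    ∀ χ ∈ As ι z, blockOf M (χ : K → ℂ) ⊆ As ι z := fun χ hχ _ hψ =>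
  (h.lam_congr (H33.isPBlock_blockOf χ) hψ (H33.mem_blockOf_self _) hz).trans hχ

open Classical in
theorem Emb.sum_As [Fintype K] (h : Emb ι H) (hz : z ∈ fix (Res M) H H)
    (hi : IsIdempotentElem z) {N : Type*} [AddCommMonoid N] (F : IrrCharacter K → N) :
    ∑ χ ∈ fs (As ι z), F χ =
      ∑ c ∈ blocks K M with z * idm M ι c = idm M ι c, ∑ χ ∈ fs c, F χ := by
  have e : fs (As ι z) = Finset.univ.filter fun χ => H87.lam ι χ z = 1 := by
    ext χ; simp [mem_fs, As]
  rw [e, Finset.sum_filter, Finset.sum_filter, ← sum_blocks_sum (M := M)]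
  refine Finset.sum_congr rfl fun c hc => ?_
  have hc' := mem_blocks.1 hc
  split_ifs with h1
  · exact Finset.sum_congr rfl fun χ hχ =>
      if_pos ((h.lam_eq_one_iff hc' (mem_fs.1 hχ) hz hi).2 h1)
  · exact Finset.sum_eq_zero fun χ hχ =>
      if_neg fun h2 => h1 ((h.lam_eq_one_iff hc' (mem_fs.1 hχ) hz hi).1 h2)

theorem Emb.rank_As [Fintype K] (hM : IsPModular p M) (h : Emb ι H) (hz : z ∈ fix (Res M) H H)
    (hi : IsIdempotentElem z) : blockRank p (As ι z) = rkB p ι z := by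
  classical
  apply Nat.cast_injective (R := ℂ)
  rw [← sum_ci_reg_self' hM (Emb.closed_As h hz.2), Emb.sum_As h hz hi, rkB, Nat.cast_sum]
  exact Finset.sum_congr rfl fun c hc =>
    sum_ci_reg_self hM (mem_blocks.1 (Finset.mem_filter.1 hc).1)

theorem lam_comp [Finite K] [Finite L] (ι : K →* G) (μ : L →* K) (ξ : IrrCharacter L)
    (z : (Res M)[G]) : H87.lam (ι.comp μ) ξ z = H87.lam μ ξ (pb ι z) := by
  rw [H87.lam, H87.lam]
  exact congrArg _ (ext_coeff fun x => by simp)

open Classical in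
theorem Emb.sum_con [Fintype K] (hM : IsPModular p M) (h : Emb ι H) (hz : z ∈ fix (Res M) H H)
    (hi : IsIdempotentElem z) {u : K} (hu : ∃ n, orderOf u = p ^ n)
    [Fintype (Ce (zpowers u))] {c : Set (IrrCharacter (Ce (zpowers u)))} (hc : IsPBlock M c) :
    ∑ χ ∈ fs (As ι z), con p (Ce (zpowers u)) u c χ χ =
      if Br (zpowers (ι u)) z * idm M (ι.comp (Ce (zpowers u)).subtype) c =
        idm M (ι.comp (Ce (zpowers u)).subtype) c then (blockRank p c : ℂ) else 0 := by
  have : Fact p.Prime := ⟨hM.1⟩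
  have := res_charP hM
  have hC := isCent_zpowers u
  obtain ⟨B, hB⟩ := exists_induced hM hC hu hc
  obtain ⟨ξ, hξ⟩ := H33.block_nonempty hc
  have hE := h.Ce (zpowers u)
  rw [MonoidHom.map_zpowers] at hE
  have hP : IsPGroup p (zpowers (ι u)) := by
    obtain ⟨n, hn⟩ := hu
    exact IsPGroup.of_card (n := n) (by rw [Nat.card_zpowers, orderOf_injective ι h.inj, hn])
  have hle : zpowers (ι u) ≤ H := (zpowers_le).2 (h.mem u)
  have key : ∀ χ ∈ B, χ ∈ As ι z ↔ Br (zpowers (ι u)) z *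
      idm M (ι.comp (Ce (zpowers u)).subtype) c = idm M (ι.comp (Ce (zpowers u)).subtype) c :=
    fun χ hχ => by
      rw [← hE.lam_eq_one_iff hc hξ (fix_mono le_rfl (inf_le_inf_left H (Ce_le_No _))
        (Br_mem_fix hz _)) (Br_idem hP (hz.2.mono hle) hi), hE.lam_Br inf_le_right, lam_comp,
        (isInducedBlock_iff.1 hB).2.2 ξ hξ χ hχ _ (mem_fix_top.2 (h.inv_pb hz.2)), lam_id]
      rfl
  have h0 : ∀ χ : IrrCharacter K, χ ∉ B → con p (Ce (zpowers u)) u c χ χ = 0 := fun χ hχ => by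
    rw [con, gen, blockPart_reg_shift_eq_zero hM hC hu hB hχ]
    simp [classInner]
  split_ifs with h1
  · rw [← sum_con_self hM hC hu hB]
    exact (Finset.sum_subset (fun χ hχ => mem_fs.2 ((key χ (mem_fs.1 hχ)).2 h1))
      fun χ _ hχ => h0 χ fun h => hχ (mem_fs.2 h)).symm
  · exact Finset.sum_eq_zero fun χ hχ => h0 χ fun h => h1 ((key χ h).1 (mem_fs.1 hχ))

variable (p) in
/-- `|C|` times the sum of the ranks of the blocks of `C` under `z`. -/
noncomputable def Phi (C : Subgroup G) (z : (Res M)[G]) : ℕ :=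
  haveI := Fintype.ofFinite C
  Nat.card C * rkB p C.subtype z

theorem Emb.Phi_eq [Fintype K] (h : Emb ι H) (z : (Res M)[G]) :
    Phi p H z = Nat.card K * rkB p ι z := by
  have := Fintype.ofFinite H
  rw [Phi, h.card, ← Emb.rkB_eq (emb_subtype H) h]
  congr!

open Classical in
theorem Emb.card_As [Fintype G] [Finite K] (hM : IsPModular p M) (h : Emb ι H)
    (hz : z ∈ fix (Res M) H H) (hi : IsIdempotentElem z) :
    Nat.card K * Nat.card (As ι z) = ∑ u with (∃ n, orderOf u = p ^ n) ∧ u ∈ H,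
      Phi p (H ⊓ Ce (zpowers u)) (Br (zpowers u) z) := by
  have := Fintype.ofFinite K
  apply Nat.cast_injective (R := ℂ)
  have e1 : ((Nat.card K * Nat.card (As ι z) : ℕ) : ℂ) =
      ∑ χ ∈ fs (As ι z), Nat.card K * classInner (χ : K → ℂ) χ := by
    rw [Finset.sum_congr rfl fun (χ : IrrCharacter K) _ => by rw [H5.classInner_irr_self χ.2]]
    simp [card_fs, mul_comm]
  rw [e1, Finset.sum_congr rfl fun (χ : IrrCharacter K) _ =>
    card_mul_ci (M := M) hM.1 (irr_cf χ.2) (χ : K → ℂ), Finset.sum_comm, Nat.cast_sum]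
  refine Finset.sum_nbij ι (fun u hu => ?_) h.inj.injOn (fun u hu => ?_) fun u hu => ?_
  · simpa [orderOf_injective ι h.inj, h.mem] using hu
  · simp only [Finset.coe_filter, Finset.mem_univ, true_and, Set.mem_ofPred_eq] at hu
    obtain ⟨x, rfl⟩ := h.exists hu.2
    exact ⟨x, by simpa [orderOf_injective ι h.inj] using hu.1, rfl⟩
  · have hu' : ∃ n, orderOf u = p ^ n := by simpa using hu
    have := Fintype.ofFinite (Ce (zpowers u))
    have hC := isCent_zpowers u
    have hE := h.Ce (zpowers u)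
    rw [MonoidHom.map_zpowers] at hE
    rw [Finset.sum_comm, hC.sum_prs, Emb.Phi_eq hE, rkB, Finset.sum_filter, Nat.cast_mul,
      Nat.cast_sum, Finset.mul_sum]
    refine Finset.sum_congr rfl fun c hc => ?_
    have hc' := mem_blocks.1 hc
    rw [Finset.sum_congr rfl fun (χ : IrrCharacter K) _ =>
      W_idm hM (irr_cf χ.2) (χ : K → ℂ) hC hu' hc', ← Finset.mul_sum,
      Emb.sum_con hM h hz hi hu' hc', Nat.cast_ite, Nat.cast_zero]

open Classical in
theorem Emb.card_sub_rank [Fintype G] [Finite K] (hM : IsPModular p M) (h : Emb ι H)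
    (hz : z ∈ fix (Res M) H H) (hi : IsIdempotentElem z) :
    (Nat.card K : ℤ) * ((Nat.card (As ι z) : ℤ) - blockRank p (As ι z)) =
      ∑ u with (∃ n, orderOf u = p ^ n) ∧ u ≠ 1, if u ∈ H then
        (Phi p (H ⊓ Ce (zpowers u)) (Br (zpowers u) z) : ℤ) else 0 := by
  have := Fintype.ofFinite K
  have h1 := Emb.card_As hM h hz hi
  rw [← Finset.add_sum_erase _ _ (a := 1) (by simpa using ⟨0, by simp⟩)] at h1
  have e0 : Ce (zpowers (1 : G)) = ⊤ := by simp
  have e1 : Br (zpowers (1 : G)) z = z := Br_of_supp (by rw [e0]; exact supp_top z)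
  rw [e0, e1, inf_top_eq, Emb.Phi_eq h, ← Emb.rank_As hM h hz hi] at h1
  rw [← Finset.sum_filter, Finset.filter_filter, mul_sub, ← Nat.cast_mul, h1, Nat.cast_add,
    Nat.cast_mul, add_sub_cancel_left, Nat.cast_sum]
  refine Finset.sum_congr ?_ fun _ _ => rfl
  ext u
  simp only [Finset.mem_erase, Finset.mem_filter, Finset.mem_univ, true_and]
  tauto

theorem As_id_eB {B : Set (IrrCharacter G)} (hB : IsPBlock M B) :
    As (MonoidHom.id G) (eB M B) = B := by
  ext χ
  rw [← idm_id]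
  refine ⟨fun h => by_contra fun h' => ?_, lam_idm_of_mem Function.injective_id hB⟩
  exact zero_ne_one ((lam_idm_of_not_mem Function.injective_id hB h').symm.trans h)

theorem As_Br (hM : IsPModular p M) {T : Subgroup G} (hT : IsPGroup p T) (h1 : T ≤ H)
    (h2 : H ≤ No T) (h3 : Ce T ≤ H) {B : Set (IrrCharacter G)} (hB : IsPBlock M B) :
    {ψ : IrrCharacter H | ∃ β : Set (IrrCharacter H), ψ ∈ β ∧ IsInducedBlock M H β B} =
      As H.subtype (Br T (eB M B)) := by
  have : Fact p.Prime := ⟨hM.1⟩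
  have := res_charP hM
  have h := emb_subtype H
  have hz : Br T (eB M B) ∈ fix (Res M) H H :=
    fix_mono (inf_le_right.trans h3) (le_inf le_top h2) (Br_mem_fix (eB_mem_fix B ⊤) T)
  have hi := Br_idem hT (inv_eB B T) (blk_eB hB).idem
  have key : ∀ β, IsPBlock M β → ∀ ψ ∈ β,
      (IsInducedBlock M H β B ↔ ψ ∈ As H.subtype (Br T (eB M B))) := fun β hβ ψ hψ => by
    have e := Br_eq_self_of_idem le_rfl hT h1 h2 (h.idm_mem_fix β) (h.blk_idm hβ).idem
    have a1 := (inf_le_right (a := ⊤)).trans h3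
    rw [isInducedBlock_iff]
    refine Iff.trans ?_ (h.lam_eq_one_iff hβ hψ hz hi).symm
    refine ⟨fun hI => ?_, fun h4 => ⟨hβ, hB, ?_⟩⟩
    · have := hI.2.2.Br_mul_Br hM h emb_id le_top hT le_top a1 (inv_of_le_fix h1) hβ hB
      rwa [e, idm_id] at this
    · refine ind_of_Br_mul_ne_zero hM h emb_id le_top hT le_top a1 (inv_of_le_fix h1) hβ hB ?_
      rw [e, idm_id, h4]
      exact (h.blk_idm hβ).ne_zero
  ext ψ
  exact ⟨fun ⟨β, h4, h5⟩ => (key β h5.1 ψ h4).1 h5, fun h4 =>
    ⟨_, H33.mem_blockOf_self ψ, (key _ (H33.isPBlock_blockOf ψ) ψ (H33.mem_blockOf_self ψ)).2 h4⟩⟩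

end Cfsg.Agent.H86
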