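import Cfsg.Agent.H87.SylIn

/-! A sign-reversing involution on normal chains of `p`-subgroups. -/

set_option autoImplicit false
set_option linter.unusedSectionVars false

open Subgroup

namespace Cfsg.Agent.H86

open Cfsg.Agent.H87

variable {G : Type*} [Group G] {p : ℕ} {u : G} {s : Finset (Subgroup G)}

variable (p) in
/-- A (possibly empty) normal chain of nontrivial `p`-subgroups. -/
structure NCh (s : Finset (Subgroup G)) : Prop where
  tot : ∀ Q ∈ s, ∀ R ∈ s, Q ≤ R ∨ R ≤ Q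
  pgp : ∀ Q ∈ s, Q ≠ ⊥ ∧ IsPGroup p Q
  nrm : ∀ Q ∈ s, ∀ R ∈ s, R ≤ No Q

/-- The stabilizer of a chain. -/
abbrev chN (s : Finset (Subgroup G)) : Subgroup G := ⨅ Q ∈ s, No Q

theorem mem_chN {g : G} : g ∈ chN s ↔ ∀ Q ∈ s, g ∈ No Q := by simp [chN, mem_iInf]

theorem le_chN {X : Subgroup G} : X ≤ chN s ↔ ∀ Q ∈ s, X ≤ No Q := by simp [chN]

theorem NCh.mono (h : NCh p s) {t : Finset (Subgroup G)} (ht : t ⊆ s) : NCh p t :=
  ⟨fun Q hQ R hR => h.tot Q (ht hQ) R (ht hR), fun Q hQ => h.pgp Q (ht hQ),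
    fun Q hQ R hR => h.nrm Q (ht hQ) R (ht hR)⟩

theorem NCh.sup_mem (h : NCh p s) : s.sup id = ⊥ ∨ s.sup id ∈ s := by
  classical
  induction s using Finset.induction_on with
  | empty => exact Or.inl rfl
  | insert Q s _ ih =>
    rw [Finset.sup_insert, id]
    rcases ih (h.mono (Finset.subset_insert _ _)) with h1 | h1
    · rw [h1, sup_bot_eq]; exact Or.inr (Finset.mem_insert_self _ _)
    · rcases h.tot Q (Finset.mem_insert_self _ _) _ (Finset.mem_insert_of_mem h1) with h2 | h2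
      · rw [sup_eq_right.2 h2]; exact Or.inr (Finset.mem_insert_of_mem h1)
      · rw [sup_eq_left.2 h2]; exact Or.inr (Finset.mem_insert_self _ _)

theorem NCh.isPGroup (h : NCh p s) : IsPGroup p (s.sup id : Subgroup G) := by
  rcases h.sup_mem with h1 | h1
  · rw [h1]; exact IsPGroup.of_bot
  · exact (h.pgp _ h1).2

theorem NCh.le_No_sup (h : NCh p s) : chN s ≤ No (s.sup id) := by
  rcases h.sup_mem with h1 | h1
  · rw [h1]; exact fun g _ => mem_No_iff_cjS.2 (map_bot _)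
  · exact le_chN.1 le_rfl _ h1

theorem NCh.top_le (h : NCh p s) : s.sup id ≤ chN s :=
  le_chN.2 fun Q hQ => Finset.sup_le fun R hR => h.nrm Q hQ R hR

theorem Ce_sup_le_chN (s : Finset (Subgroup G)) : Ce (s.sup id) ≤ chN s :=
  le_chN.2 fun Q hQ => (Ce_anti (Finset.le_sup (f := id) hQ)).trans (Ce_le_No Q)

/-- The smallest subgroup containing `L` and `u` that is normalized by `T`. -/
def ncl (u : G) (L T : Subgroup G) : Subgroup G := sInf {Y | L ≤ Y ∧ u ∈ Y ∧ T ≤ No Y}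

section ncl

variable {L T Y : Subgroup G}

theorem le_ncl : L ≤ ncl u L T := le_sInf fun _ h => h.1

theorem mem_ncl : u ∈ ncl u L T := mem_sInf.2 fun _ h => h.2.1

theorem ncl_le (h1 : L ≤ Y) (h2 : u ∈ Y) (h3 : T ≤ No Y) : ncl u L T ≤ Y := sInf_le ⟨h1, h2, h3⟩

theorem mem_No_of_conj {X : Subgroup G} (h : ∀ x ∈ X, ∀ y ∈ Y, x * y * x⁻¹ ∈ Y) : X ≤ No Y :=
  fun x hx => mem_normalizer_iff.2 fun y => ⟨h x hx y, fun hy => by
    simpa [mul_assoc] using h x⁻¹ (inv_mem hx) _ hy⟩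

theorem le_No_ncl : T ≤ No (ncl u L T) :=
  mem_No_of_conj fun _ hx _ hy => mem_sInf.2 fun Y hY =>
    conj_mem_of_No (hY.2.2 hx) (mem_sInf.1 hy Y hY)

theorem inf_le_No_ncl : No L ⊓ No T ⊓ Ce (zpowers u) ≤ No (ncl u L T) := by
  refine mem_No_of_conj fun x hx y hy => mem_sInf.2 fun Y hY => ?_
  have h1 : ncl u L T ≤ cjS x⁻¹ Y := by
    refine ncl_le ?_ ?_ ?_
    · rw [← mem_No_iff_cjS.1 (inv_mem hx.1.1)]; exact cjS_mono _ hY.1
    · rw [mem_cjS, inv_inv, ← mem_Ce.1 hx.2 u (mem_zpowers u), mul_inv_cancel_right]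
      exact hY.2.1
    · rw [← cjS_No, ← mem_No_iff_cjS.1 (inv_mem hx.1.2)]; exact cjS_mono _ hY.2.2
  simpa using mem_cjS.1 (h1 hy)

theorem sup_eq_of_ncl [Finite G] [Fact p.Prime] (hT : IsPGroup p T) (h1 : L ≤ T) (h2 : u ∈ T)
    (h : T ≤ ncl u L T) : L ⊔ zpowers u = T := by
  have h3 : L ⊔ zpowers u ≤ T := sup_le h1 (zpowers_le.2 h2)
  by_contra h4
  obtain ⟨Y, hY, hm⟩ := Finite.exists_le_maximal (p := fun Y => Y < T) (lt_of_le_of_ne h3 h4)
  have h5 := lt_inf_No hT hm.prop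
  have h6 : T ⊓ No Y = T := by
    by_contra h6
    exact h5.not_ge (hm.le_of_ge (lt_of_le_of_ne inf_le_left h6) h5.le)
  exact hm.prop.not_ge (h.trans (ncl_le (le_sup_left.trans hY)
    (hY (le_sup_right (a := L) (mem_zpowers u))) (inf_eq_left.1 h6)))

end ncl

open Classical in
/-- The largest member not containing `u`. -/
noncomputable def chL (u : G) (s : Finset (Subgroup G)) : Subgroup G :=
  (s.filter fun Q => u ∉ Q).sup id

/-- The top member joined with `u`. -/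
def chT (u : G) (s : Finset (Subgroup G)) : Subgroup G := s.sup id ⊔ zpowers u

/-- The member to toggle. -/
noncomputable def chR (u : G) (s : Finset (Subgroup G)) : Subgroup G := ncl u (chL u s) (chT u s)

theorem chL_le {X : Subgroup G} (h : ∀ Q ∈ s, u ∉ Q → Q ≤ X) : chL u s ≤ X := by
  classical
  exact Finset.sup_le fun Q hQ => h Q (Finset.mem_filter.1 hQ).1 (Finset.mem_filter.1 hQ).2

theorem le_chL {Q : Subgroup G} (hQ : Q ∈ s) (h : u ∉ Q) : Q ≤ chL u s := by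
  classical
  exact Finset.le_sup (f := id) (by simpa using ⟨hQ, h⟩)

theorem le_chT {Q : Subgroup G} (hQ : Q ∈ s) : Q ≤ chT u s :=
  (Finset.le_sup (f := id) hQ).trans le_sup_left

theorem mem_chT : u ∈ chT u s := le_sup_right (a := s.sup id) (mem_zpowers u)

theorem chL_le_chT : chL u s ≤ chT u s :=
  chL_le fun _ hQ _ => le_chT hQ

theorem chR_le_chT : chR u s ≤ chT u s := ncl_le chL_le_chT mem_chT le_normalizer

theorem NCh.chT_le (h : NCh p s) (hu : u ∈ chN s) : chT u s ≤ chN s :=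
  sup_le h.top_le (zpowers_le.2 hu)

theorem NCh.isPGroup_chT (h : NCh p s) (hu : u ∈ chN s) (hp : IsPGroup p (zpowers u)) :
    IsPGroup p (chT u s) :=
  isPGroup_sup_of_le_No h.isPGroup hp (zpowers_le.2 (h.le_No_sup hu))

theorem NCh.chR_le (h : NCh p s) (hu : u ∈ chN s) {Q : Subgroup G} (hQ : Q ∈ s) (h1 : u ∈ Q) :
    chR u s ≤ Q := by
  refine ncl_le (chL_le fun R h2 h3 => ?_) h1 (le_chN.1 (h.chT_le hu) Q hQ)
  exact (h.tot R h2 Q hQ).resolve_right fun h4 => h3 (h4 h1)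

theorem NCh.inf_le_No_chR (h : NCh p s) : chN s ⊓ Ce (zpowers u) ≤ No (chR u s) := by
  classical
  refine le_trans (le_inf (le_inf ?_ ?_) inf_le_right) inf_le_No_ncl
  · refine inf_le_left.trans (le_trans ?_ (h.mono (Finset.filter_subset _ _)).le_No_sup)
    exact le_chN.2 fun Q hQ => le_chN.1 le_rfl Q (Finset.mem_of_mem_filter _ hQ)
  · exact (inf_le_inf h.le_No_sup (Ce_le_No _)).trans (No_inf_No_le_sup _ _)

variable [DecidableEq (Subgroup G)]

theorem NCh.ins (h : NCh p s) (hu : u ∈ chN s) (hp : IsPGroup p (zpowers u)) (h1 : u ≠ 1) :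
    NCh p (insert (chR u s) s) := by
  have a1 : ∀ Q ∈ s, Q ≤ chR u s ∨ chR u s ≤ Q := fun Q hQ => by
    by_cases h2 : u ∈ Q
    · exact Or.inr (h.chR_le hu hQ h2)
    · exact Or.inl ((le_chL hQ h2).trans le_ncl)
  have a2 : ∀ Q ∈ insert (chR u s) s, Q ≤ chT u s ∧ chT u s ≤ No Q := by
    simp only [Finset.forall_mem_insert]
    exact ⟨⟨chR_le_chT, le_No_ncl⟩, fun Q hQ => ⟨le_chT hQ, le_chN.1 (h.chT_le hu) Q hQ⟩⟩
  refine ⟨?_, ?_, fun Q hQ R hR => (a2 R hR).1.trans (a2 Q hQ).2⟩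
  · simp only [Finset.forall_mem_insert]
    exact ⟨⟨Or.inl le_rfl, fun Q hQ => (a1 Q hQ).symm⟩, fun Q hQ => ⟨a1 Q hQ, h.tot Q hQ⟩⟩
  · simp only [Finset.forall_mem_insert]
    refine ⟨⟨fun h2 => h1 ?_, (h.isPGroup_chT hu hp).to_le chR_le_chT⟩, h.pgp⟩
    exact mem_bot.1 (h2 ▸ (mem_ncl : u ∈ chR u s))

theorem chL_insert {R : Subgroup G} (hR : u ∈ R) : chL u (insert R s) = chL u s := by
  rw [chL, chL]
  congr 1
  ext Q
  simp only [Finset.mem_filter, Finset.mem_insert]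
  exact ⟨fun h => ⟨h.1.resolve_left fun e => h.2 (e ▸ hR), h.2⟩, fun h => ⟨Or.inr h.1, h.2⟩⟩

theorem chT_insert : chT u (insert (chR u s) s) = chT u s := by
  rw [chT, Finset.sup_insert, sup_assoc]
  exact sup_eq_right.2 chR_le_chT

theorem chR_insert : chR u (insert (chR u s) s) = chR u s := by
  rw [chR, chL_insert (R := chR u s) mem_ncl, chT_insert]
  rfl

theorem NCh.chN_insert (h : NCh p s) :
    chN (insert (chR u s) s) ⊓ Ce (zpowers u) = chN s ⊓ Ce (zpowers u) := by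
  refine le_antisymm (inf_le_inf_right _ (le_chN.2 fun Q hQ =>
    le_chN.1 le_rfl Q (Finset.mem_insert_of_mem hQ))) (le_inf (le_chN.2 ?_) inf_le_right)
  simp only [Finset.forall_mem_insert]
  exact ⟨h.inf_le_No_chR, fun Q hQ => inf_le_left.trans (le_chN.1 le_rfl Q hQ)⟩

variable [Finite G] [Fact p.Prime]

theorem NCh.chT_erase (h : NCh p s) (hu : u ∈ chN s) (hp : IsPGroup p (zpowers u)) :
    chT u (s.erase (chR u s)) = chT u s := by
  refine le_antisymm (sup_le_sup_right (Finset.sup_mono (Finset.erase_subset _ _)) _) ?_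
  by_cases h1 : ∃ Q ∈ s.erase (chR u s), u ∈ Q
  · obtain ⟨Q, hQ, h2⟩ := h1
    refine sup_le (Finset.sup_le fun R hR' => ?_) le_sup_right
    by_cases h3 : R = chR u s
    · exact (h3.le.trans (h.chR_le hu (Finset.mem_of_mem_erase hQ) h2)).trans (le_chT hQ)
    · exact le_chT (Finset.mem_erase.2 ⟨h3, hR'⟩)
  · push Not at h1
    have h2 : chT u s ≤ chR u s := by
      refine sup_le (Finset.sup_le fun R hR' => ?_) (zpowers_le.2 mem_ncl)
      by_cases h3 : R = chR u s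
      · exact h3.le
      · exact (le_chL hR' (h1 R (Finset.mem_erase.2 ⟨h3, hR'⟩))).trans le_ncl
    rw [← sup_eq_of_ncl (h.isPGroup_chT hu hp) chL_le_chT mem_chT h2]
    refine sup_le (chL_le fun R h3 h4 => le_chT (Finset.mem_erase.2 ?_)) le_sup_right
    exact ⟨fun e => h4 (e ▸ (mem_ncl : u ∈ chR u s)), h3⟩

theorem NCh.chR_erase (h : NCh p s) (hu : u ∈ chN s) (hp : IsPGroup p (zpowers u))
    (hR : chR u s ∈ s) : chR u (s.erase (chR u s)) = chR u s := by
  rw [chR, h.chT_erase hu hp, ← chL_insert (R := chR u s) mem_ncl, Finset.insert_erase hR]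
  rfl

theorem sum_chains_eq_zero (hp : IsPGroup p (zpowers u)) (h1 : u ≠ 1)
    (S : Finset (Finset (Subgroup G))) (hS : ∀ s, s ∈ S ↔ NCh p s ∧ u ∈ chN s)
    (F : Subgroup G → Subgroup G → ℤ) :
    ∑ s ∈ S, (-1) ^ s.card * F (chN s ⊓ Ce (zpowers u)) (chT u s) = 0 := by
  have hc : u ∈ Ce (zpowers u) := mem_Ce.2 fun q hq => by
    obtain ⟨n, rfl⟩ := mem_zpowers_iff.1 hq
    exact (Commute.refl u).zpow_left n
  have key : ∀ s ∈ S, chR u s ∉ s → (-1) ^ s.card * F (chN s ⊓ Ce (zpowers u)) (chT u s) +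
      (-1) ^ (insert (chR u s) s).card * F (chN (insert (chR u s) s) ⊓ Ce (zpowers u))
        (chT u (insert (chR u s) s)) = 0 := fun s hs h => by
    rw [((hS s).1 hs).1.chN_insert, chT_insert, Finset.card_insert_of_notMem h]
    ring
  have he : ∀ s ∈ S, ∀ R, s.erase R ∈ S := fun s hs R =>
    (hS _).2 ⟨((hS s).1 hs).1.mono (Finset.erase_subset _ _), mem_chN.2 fun Q hQ =>
      mem_chN.1 ((hS s).1 hs).2 Q (Finset.mem_of_mem_erase hQ)⟩
  refine Finset.sum_involution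
    (fun s _ => if chR u s ∈ s then s.erase (chR u s) else insert (chR u s) s)
    (fun s hs => ?_) (fun s hs _ => ?_) (fun s hs => ?_) fun s hs => ?_
  · obtain ⟨h, hu⟩ := (hS s).1 hs
    split_ifs with h2
    · have h3 := key _ (he s hs (chR u s)) (by rw [h.chR_erase hu hp h2]; simp)
      rw [h.chR_erase hu hp h2, Finset.insert_erase h2] at h3
      rw [add_comm, h3]
    · exact key s hs h2
  · split_ifs with h2
    · exact fun e => (Finset.notMem_erase (chR u s) s) (e.symm ▸ h2)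
    · exact fun e => h2 (e.le (Finset.mem_insert_self _ _))
  · obtain ⟨h, hu⟩ := (hS s).1 hs
    split_ifs with h2
    · exact he s hs _
    · exact (hS _).2 ⟨h.ins hu hp h1, (h.chN_insert.ge ⟨hu, hc⟩).1⟩
  · obtain ⟨h, hu⟩ := (hS s).1 hs
    by_cases h2 : chR u s ∈ s
    · rw [if_pos h2, h.chR_erase hu hp h2, if_neg (Finset.notMem_erase _ _),
        Finset.insert_erase h2]
    · rw [if_neg h2, chR_insert, if_pos (Finset.mem_insert_self _ _), Finset.erase_insert h2]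

end Cfsg.Agent.H86
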