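import Cfsg.Agent.H86.Nbr
import Cfsg.Agent.H26.HZ

/-! At most five characters of height zero in the principal block, `p` odd. -/

set_option autoImplicit false

open Cfsg Finset

namespace Cfsg.Agent.H86.T5

theorem pad {α : Type*} (s : Finset α) (h : s.card ≤ 4) (x : α → ℤ) :
    ∃ y : Fin 4 → ℤ, ∀ F : ℤ → ℤ, F 0 = 0 → ∑ a ∈ s, F (x a) = ∑ j, F (y j) := by
  classical
  let e := s.equivFin
  refine ⟨fun j => if h : j.1 < s.card then x (e.symm ⟨j, h⟩) else 0, fun F h0 => ?_⟩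
  rw [← sum_coe_sort, ← e.symm.sum_comp]
  refine sum_of_injOn (Fin.castLE h) (Fin.castLE_injective h).injOn (by simp) ?_ ?_
  · intro j _ hj
    beta_reduce
    rw [dif_neg, h0]
    exact fun h1 => hj ⟨⟨j, h1⟩, by simp, rfl⟩
  · intro j _
    beta_reduce
    rw [dif_pos (show (Fin.castLE h j).1 < s.card from j.2)]
    rfl

theorem no_sq {G : Type*} [Group G] [Finite G] {p : ℕ} {M : Ideal AlgInt} (hM : IsPModular p M)
    (h2 : p ≠ 2) (h : (H26.HZ.hz p M G).card ≤ 4) : ¬ p ^ 2 ∣ Nat.card G := fun hd => by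
  have := hM.2.1
  have hp := hM.1
  have := Fact.mk hp
  obtain ⟨y, hy⟩ := pad _ h fun χ => (charDegree (χ : G → ℂ) : ℤ)
  have sq : (p : ℤ) ^ 2 ∣ 1 + ∑ j, y j ^ 2 := by
    rw [← hy (· ^ 2) (by simp)]
    exact_mod_cast H26.HZ.sq_dvd_sq hM hd
  obtain ⟨t, z, t0, t1, e⟩ := Nbr.eqn (hp.odd_of_ne_two h2) hp.one_lt y
    ((dvd_pow_self _ two_ne_zero).trans sq)
  obtain ⟨c, hc⟩ : ∃ c : ℤ → ℤ, c = fun d => ((t * d : ℤ) : ZMod p).valMinAbs := ⟨_, rfl⟩
  have c0 : c 0 = 0 := by simp [hc]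
  have c1 : ∀ d, (p : ℤ) ∣ c d - t * d := fun d => by
    rw [← ZMod.intCast_zmod_eq_zero_iff_dvd, hc]; push_cast; simp
  obtain ⟨k1, k2⟩ := H26.HZ.key (G := G) hM ((dvd_pow_self _ two_ne_zero).trans hd) t
    (fun d => c d) fun d => c1 d
  rw [hy (fun d => c d ^ 2) (by simp [c0])] at k1 k2
  rw [hy (fun d => c d * d) (by simp)] at k2
  have le : ∑ j, c (y j) ^ 2 ≤ t * (p - t) := by
    rw [← e]
    refine sum_le_sum fun j _ => ?_
    have := ZMod.natAbs_min_of_le_div_two p (c (y j)) (t * y j + p * z j)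
      (by rw [hc]; push_cast; simp) (by rw [hc]; exact ZMod.natAbs_valMinAbs_le _)
    rwa [Int.natAbs_le_iff_sq_le] at this
  have e2 := le_antisymm k1 le
  choose w hw using fun j => c1 (y j)
  have e3 : (p : ℤ) ^ 2 * ∑ j, w j ^ 2 =
      ∑ j, c (y j) ^ 2 - 2 * t * ∑ j, c (y j) * y j + t ^ 2 * ∑ j, y j ^ 2 := by
    simp only [mul_sum, ← sum_sub_distrib, ← sum_add_distrib]
    exact sum_congr rfl fun j _ => by rw [← mul_pow, ← hw]; ring
  obtain ⟨n, hn⟩ := sq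
  have p0 : (p : ℤ) ≠ 0 := by omega
  have : (p : ℤ) ∣ t := by
    rcases k2 e2 with k | k
    · refine ⟨∑ j, w j ^ 2 - t ^ 2 * n, mul_left_cancel₀ p0 ?_⟩
      rw [k, ← e2] at e3
      linear_combination -e3 - t ^ 2 * hn
    · refine ⟨t ^ 2 * n - ∑ j, w j ^ 2, mul_left_cancel₀ p0 ?_⟩
      rw [k, ← e2] at e3
      linear_combination e3 + t ^ 2 * hn
  exact absurd (Int.le_of_dvd t0 this) (by omega)

end Cfsg.Agent.H86.T5
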